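import Cfsg.Agent.H941.B5.TabDF
import Cfsg.Agent.CpAut.RgdD4
import Cfsg.Agent.H129.TorusChar
import Cfsg.Agent.H35.ExcIdx
import Cfsg.Agent.S1077

/-!
# `D₄(K) ≤ F₄(K)`, characteristic two (helper941, task 982 of S5741)

`io K : chevD4.group K →* chevF4.group K`, `x_r(t) ↦ x_{lr r}(t)`, injective.
-/

set_option autoImplicit false

namespace Cfsg.Agent.H941.B5

open CoxeterSystem Cfsg.Agent.ChevalleyStructure.CoxeterGeom Cfsg.Agent.Tits.Roots Cfsg.Agent.Tits.Core
  Cfsg.Agent.Nodes.Reps Cfsg.Agent.Nodes.BNOf Cfsg.Agent.Nodes.RGDChev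
open Cfsg.Lie Cfsg.Agent.ChevalleyStructure Cfsg.Agent.ChevalleyStructure.Elts
  Cfsg.Agent.ChevalleyStructure.NPerm Cfsg.Agent.ChevalleyStructure.CoxeterGeomTypes
  Cfsg.Agent.H129.TorusChar Cfsg.Agent.KFacts.RgdChevCoord Cfsg.Agent.ChevalleyStructure.StTheta

universe u

variable {K : Type u} [Field K] [CharP K 2]

theorem hD4 : InList chevD4 := by simp [InList]
theorem hF4 : InList chevF4 := by simp [InList]

theorem hpF4 : IsType chevF4 4 CoxeterMatrix.F₄ := by simp [IsType, typeList]

theorem vec_F4 : ∀ i : Fin 4, vec chevF4 4 25 i = sr 2 i ∧ vec chevF4 4 24 i = sr 3 i ∧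
    vec chevF4 4 30 i = 2 * sr 1 i + sr 2 i ∧ vec chevF4 4 41 i = 2 * sr 0 i + vec chevF4 4 30 i := by
  decide +kernel

/-- a torus element centralizing the long root elements is trivial -/
theorem torus_eq_one {t : ↥(chevF4.group K)} (ht : t ∈ TT chevF4 K)
    (h : ∀ r < 24, (t : GL chevF4.Idx K) * xG hF4 (lr r) 1 * (t : GL chevF4.Idx K)⁻¹ = xG hF4 (lr r) 1) :
    t = 1 := by
  have h1 : ∀ r < 24, cX hpF4 t (vec chevF4 4 (lr r)) = 1 := by
    intro r hr
    have hlt : lr r < chevF4.nroots := lr_lt r hr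
    rw [cX_vec hpF4 ht hlt]
    have h2 := congrArg Subtype.val ((act hpF4 hlt ht).2 1)
    rw [Subgroup.coe_mul, Subgroup.coe_mul, Subgroup.coe_inv, coe_xc hpF4 hlt, coe_xc hpF4 hlt, mul_one] at h2
    exact (xG_injective hF4 hlt (h2.symm.trans (h r hr)))
  have hm := isMC_cX hpF4 ht
  have hsq : ∀ a : K, a * a = 1 → a = 1 := by
    intro a ha
    have h2 : (a - 1) ^ 2 = 0 := by
      have h3 : (2 : K) = 0 := CharP.cast_eq_zero K 2
      linear_combination ha - (a - 1) * h3
    exact sub_eq_zero.1 (pow_eq_zero_iff two_ne_zero |>.1 h2)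
  have e2 : cX hpF4 t (sr 2) = 1 := by
    have := h1 18 (by norm_num)
    rwa [show lr 18 = 25 from rfl, funext fun i => (vec_F4 i).1] at this
  have e3 : cX hpF4 t (sr 3) = 1 := by
    have := h1 14 (by norm_num)
    rwa [show lr 14 = 24 from rfl, funext fun i => (vec_F4 i).2.1] at this
  have v30 : cX hpF4 t (vec chevF4 4 30) = 1 := h1 13 (by norm_num)
  have v41 : cX hpF4 t (vec chevF4 4 41) = 1 := h1 12 (by norm_num)
  have e1 : cX hpF4 t (sr 1) = 1 := by
    apply hsq
    have h3 : (vec chevF4 4 30) = (sr 1 + sr 1) + sr 2 := by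
      funext i
      rw [(vec_F4 i).2.2.1, Pi.add_apply, Pi.add_apply]
      ring
    rw [h3, hm.add, hm.add, e2, mul_one] at v30
    exact v30
  have e0 : cX hpF4 t (sr 0) = 1 := by
    apply hsq
    have h3 : (vec chevF4 4 41) = (sr 0 + sr 0) + vec chevF4 4 30 := by
      funext i
      rw [(vec_F4 i).2.2.2, Pi.add_apply, Pi.add_apply]
      ring
    rw [h3, hm.add, hm.add, v30, mul_one] at v41
    exact v41
  refine cX_inj hpF4 ht (one_mem _) fun i => ?_
  rw [cX_one]
  fin_cases i
  · exact e0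
  · exact e1
  · exact e2
  · exact e3

/-- the homomorphism from the Steinberg group -/
noncomputable abbrev subDF (K : Type u) [Field K] [CharP K 2] : chevD4.SteinbergGroup K →* GL chevF4.Idx K :=
  sub hF4 tab neg_D4

theorem subDF_stGen (r : ℕ) (t : K) : subDF K (chevD4.stGen K r t) = xG hF4 (lr r) t := sub_stGen hF4 tab neg_D4 r t

theorem ker_le : (theta hD4 K).ker ≤ (subDF K).ker := by
  intro z hz
  have hθ : ∀ (r : ℕ) (t : K), r < chevD4.nroots →
      ((theta hD4 K (chevD4.stGen K r t) : GL chevD4.Idx K) : Matrix chevD4.Idx chevD4.Idx K) = chevD4.x K r t :=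
    fun r t _ => theta_stGen hD4 r t
  -- central
  have hcen : z ∈ Subgroup.center (chevD4.SteinbergGroup K) := by
    obtain ⟨θ, hθs, hθk, hθx⟩ := Cfsg.Agent.S1077.result (K := K) chevD4 hD4
    have e : θ = theta hD4 K := by
      apply PresentedGroup.ext
      rintro ⟨r, t⟩
      apply Subtype.ext
      apply Units.ext
      have h1 := hθx r t r.2
      have h2 := hθ r t r.2
      rw [St.Rels.stGen_of_lt r.2] at h1 h2
      exact h1.trans h2.symm
    rw [← hθk, e]
    exact hz
  have htor := Cfsg.Agent.S1097.result chevD4 hD4 (theta hD4 K) hθ hz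
  -- in the torus
  have hT : subDF K z ∈ chevF4.diagonalSubgroup K := by
    have hle : Subgroup.closure {h | ∃ (i : ℕ) (t : K), i < chevD4.rank ∧ t ≠ 0 ∧
        h = PresentedGroup.mk (chevD4.steinbergRels K) (chevD4.stH (chevD4.simple i) t)} ≤
        (chevF4.diagonalSubgroup K).comap (subDF K) := by
      rw [Subgroup.closure_le]
      rintro _ ⟨i, t, hi, ht, rfl⟩
      have hs : chevD4.simple i < 24 := by
        have : ∀ i < 4, chevD4.simple i < 24 := by decide +kernel
        exact this i hi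
      show subDF K (PresentedGroup.mk (chevD4.steinbergRels K) (chevD4.stH (chevD4.simple i) t)) ∈
        chevF4.diagonalSubgroup K
      have e : subDF K (PresentedGroup.mk (chevD4.steinbergRels K) (chevD4.stH (chevD4.simple i) t)) =
          hG hF4 (lr (chevD4.simple i)) t := by
        show FreeGroup.lift (gen hF4 lr) (chevD4.stWord (chevD4.hWord (chevD4.simple i) t)) = _
        rw [lift_stWord hF4 tab]
        show _ = wordG hF4 (chevF4.hWord (lr (chevD4.simple i)) t)
        congr 1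
        simp only [ChevalleyDatum.hWord, ChevalleyDatum.nWord, List.map_append, List.map_cons, List.map_nil,
          lr_neg _ hs]
      rw [e]
      exact hG_mem_diagonal hF4 (lr_lt _ hs) ht
    exact hle htor
  rw [MonoidHom.mem_ker]
  have hmem : subDF K z ∈ chevF4.group K := diagonal_le_group hF4 K hT
  have h1 : (⟨subDF K z, hmem⟩ : ↥(chevF4.group K)) = 1 := by
    refine torus_eq_one (t := ⟨subDF K z, hmem⟩) hT fun r hr => ?_
    show subDF K z * xG hF4 (lr r) 1 * (subDF K z)⁻¹ = _
    rw [← subDF_stGen, ← map_mul, ← map_inv, ← map_mul, ← Subgroup.mem_center_iff.1 hcen (chevD4.stGen K r 1),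
      mul_inv_cancel_right]
  exact congrArg Subtype.val h1

/-- the embedding, into `GL` -/
noncomputable def ioGL (K : Type u) [Field K] [CharP K 2] : ↥(chevD4.group K) →* GL chevF4.Idx K :=
  (theta hD4 K).liftOfSurjective (theta_surjective hD4) ⟨subDF K, ker_le⟩

theorem ioGL_theta (z : chevD4.SteinbergGroup K) : ioGL K (theta hD4 K z) = subDF K z :=
  MonoidHom.liftOfRightInverse_comp_apply _ _ _ _ _

theorem ioGL_xG (r : ℕ) (t : K) : ioGL K ⟨xG hD4 r t, xG_mem_group hD4 r t⟩ = xG hF4 (lr r) t := by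
  rw [← subDF_stGen, ← ioGL_theta]
  congr 1
  apply Subtype.ext
  rw [coe_theta, thetaGL_stGen]

theorem ioGL_mem (g : ↥(chevD4.group K)) : ioGL K g ∈ chevF4.group K := by
  obtain ⟨z, rfl⟩ := theta_surjective hD4 (K := K) g
  rw [ioGL_theta]
  have h : z ∈ (chevF4.group K).comap (subDF K) := by
    apply St.Rels.mem_of_gens
    intro r _ t
    rw [Subgroup.mem_comap, subDF_stGen]
    exact xG_mem_group hF4 _ t
  exact h

/-- the embedding -/
noncomputable def io (K : Type u) [Field K] [CharP K 2] : ↥(chevD4.group K) →* ↥(chevF4.group K) :=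
  (ioGL K).codRestrict (chevF4.group K) ioGL_mem

theorem coe_io (g : ↥(chevD4.group K)) : ((io K g : ↥(chevF4.group K)) : GL chevF4.Idx K) = ioGL K g := rfl

theorem io_injective : Function.Injective (io K) := by
  have hs := (Cfsg.Agent.CpAut.RgdD4.simple_D4 (F := K)).1
  rw [← MonoidHom.ker_eq_bot_iff]
  rcases hs.eq_bot_or_eq_top_of_normal (io K).ker inferInstance with h | h
  · exact h
  · exfalso
    have h1 : (⟨xG hD4 0 (1 : K), xG_mem_group hD4 0 1⟩ : ↥(chevD4.group K)) ∈ (io K).ker := by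
      rw [h]; trivial
    rw [MonoidHom.mem_ker] at h1
    have h2 := congrArg Subtype.val h1
    rw [coe_io, ioGL_xG] at h2
    exact one_ne_zero ((xG_eq_one_iff hF4 (lr_lt 0 (by norm_num)) (1 : K)).1 h2)

end Cfsg.Agent.H941.B5
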