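import Cfsg.Agent.H941.B5.Emb
import Cfsg.Agent.H129.TriD4
import Cfsg.Agent.H944.TS.Iface

/-!
# `³D₄(2) ≤ F₄(2)` (helper941, task 982 of S5741)
-/

set_option autoImplicit false

namespace Cfsg.Agent.H941.B5

open CoxeterSystem Cfsg Cfsg.Lie Cfsg.Lie.ChevalleyDatum
open Cfsg.Agent.ChevalleyStructure Cfsg.Agent.ChevalleyStructure.Elts Cfsg.Agent.ChevalleyStructure.CoxeterGeom
  Cfsg.Agent.ChevalleyStructure.CoxeterGeomTypes Cfsg.Agent.ChevalleyStructure.NPerm
open Cfsg.Agent.Tits.Roots Cfsg.Agent.Tits.Core Cfsg.Agent.Nodes Cfsg.Agent.Nodes.Reps Cfsg.Agent.Nodes.BNOf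
  Cfsg.Agent.Nodes.RGDChev
open Cfsg.Agent.KFacts.RgdField Cfsg.Agent.KFacts.RgdChevCoord Cfsg.Agent.BpExc.TorCent Cfsg.Agent.BpExc.TorChev
open Cfsg.Agent.GpExc.Field Cfsg.Agent.BpExc.Tow Cfsg.Agent.BpExc.TowChev Cfsg.Agent.BpExc.Fr
  Cfsg.Agent.BpExc.LangFr Cfsg.Agent.LangThm Cfsg.Agent.BpExc Cfsg.Agent.H129.TorusChar
  Cfsg.Agent.ChevStructure.FieldMap Cfsg.Agent.BpExc.EmbInst Cfsg.Agent.H129.TorusUntw Cfsg.Agent.H129.TriD4
open Cfsg.Agent.ChevalleyStructure.D4Fixed (sig)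
open Cfsg.Agent.ChevalleyStructure.StTheta

universe u

/-! ### the triality -/

section

variable {k : Type u} [Field k] [CharP k 2]

theorem refl_lr : ∀ r : Fin 24, chevF4.reflectRoot 1 (chevF4.reflectRoot 0 (lr r)) = lr (rh r) := by
  decide +kernel

theorem refl_lt : ∀ r : Fin 24, chevF4.reflectRoot 0 (lr r) < 48 := by decide +kernel

/-- the element of order three inducing the triality -/
noncomputable def nn3 (k : Type u) [Field k] : GL chevF4.Idx k :=
  nG hF4 (chevF4.simple 1) 1 * nG hF4 (chevF4.simple 0) 1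

theorem nG_conj_two {i s : ℕ} (hi : i < 4) (hs : s < 48) (t : k) :
    nG hF4 (chevF4.simple i) 1 * xG hF4 s t * (nG hF4 (chevF4.simple i) 1)⁻¹ = xG hF4 (chevF4.reflectRoot i s) t := by
  obtain ⟨η, hη, h⟩ := Cfsg.Agent.S1031.result (F := k) chevF4 hF4 i s hi hs
  have h1 : (η : k) = 1 := by
    rcases hη with rfl | rfl
    · norm_num
    · have h3 : (2 : k) = 0 := CharP.cast_eq_zero k 2
      push_cast
      linear_combination -h3
  have h2 : nG hF4 (chevF4.simple i) 1 * xG hF4 s t = xG hF4 (chevF4.reflectRoot i s) t * nG hF4 (chevF4.simple i) 1 := by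
    apply Units.ext
    have h3 := h t
    rw [h1, one_mul] at h3
    exact h3
  rw [h2, mul_inv_cancel_right]

theorem nn3_conj (r : Fin 24) (t : k) : nn3 k * xG hF4 (lr r) t * (nn3 k)⁻¹ = xG hF4 (lr (rh r)) t := by
  have h1 : nn3 k * xG hF4 (lr r) t * (nn3 k)⁻¹ = nG hF4 (chevF4.simple 1) 1 *
      (nG hF4 (chevF4.simple 0) 1 * xG hF4 (lr r) t * (nG hF4 (chevF4.simple 0) 1)⁻¹) *
      (nG hF4 (chevF4.simple 1) 1)⁻¹ := by
    unfold nn3; group
  rw [h1, nG_conj_two (by norm_num) (lr_lt r r.2), nG_conj_two (by norm_num) (refl_lt r), refl_lr]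

theorem ed_cast (r : Fin 24) : ((ed r : ℤ) : k) = 1 := by
  have h1 : ∀ r : Fin 24, ed r % 2 = 1 := by decide +kernel
  rw [← cast_mod_two, h1, Int.cast_one]

omit [CharP k 2] in
theorem theta_of (r : Fin chevD4.nroots) (t : k) : theta hD4 k (PresentedGroup.of (rels := chevD4.steinbergRels k) (r, t)) =
    ⟨xG hD4 r t, xG_mem_group hD4 r t⟩ := by
  apply Subtype.ext
  rw [coe_theta]
  have h1 := thetaGL_stGen (K := k) hD4 r t
  rw [St.Rels.stGen_of_lt (D := chevD4) (K := k) r.2] at h1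
  exact h1

theorem subDF_of (r : Fin chevD4.nroots) (t : k) :
    subDF k (PresentedGroup.of (rels := chevD4.steinbergRels k) (r, t)) = xG hF4 (lr r) t := by
  have h1 := subDF_stGen (K := k) r t
  rw [St.Rels.stGen_of_lt (D := chevD4) (K := k) r.2] at h1
  exact h1

theorem gam_xG (r : Fin 24) (t : k) : gam k ⟨xG hD4 r t, xG_mem_group hD4 r t⟩ =
    ⟨xG hD4 (rh r) t, xG_mem_group hD4 _ t⟩ := by
  apply Subtype.ext
  rw [coe_gam]
  show sig (RingHom.id k) (xG RGDTwD4.hp.inList r.val t) = xG RGDTwD4.hp.inList (rh r).val t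
  rw [sig_ed, ed_cast, one_mul]
  rfl

/-- **the triality is induced by `nn3`** -/
theorem io_gam (y : ↥(chevD4.group k)) : ioGL k (gam k y) = nn3 k * ioGL k y * (nn3 k)⁻¹ := by
  obtain ⟨z, rfl⟩ := theta_surjective hD4 (K := k) y
  have h : (ioGL k).comp ((gam k).toMonoidHom.comp (theta hD4 k)) =
      (MulAut.conj (nn3 k)).toMonoidHom.comp (subDF k) := by
    apply PresentedGroup.ext
    rintro ⟨r, t⟩
    show ioGL k (gam k (theta hD4 k (PresentedGroup.of (r, t)))) = nn3 k * subDF k (PresentedGroup.of (r, t)) * (nn3 k)⁻¹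
    rw [theta_of, gam_xG r t, ioGL_xG, subDF_of, nn3_conj r t]
  have h1 := DFunLike.congr_fun h z
  rw [ioGL_theta]
  exact h1

end

/-! ### the Frobenius -/

section Frob

variable {k : Type u} [Field k] [IsAlgClosed k] {e : ℕ} [CharP k 2]

theorem io_phi (y : ↥(chevD4.group k)) :
    ioGL k (phi chevD4 k 2 e y) = glMap chevF4 (iterateFrobenius k 2 e) (ioGL k y) := by
  obtain ⟨z, rfl⟩ := theta_surjective hD4 (K := k) y
  have h : (ioGL k).comp ((phi chevD4 k 2 e).toMonoidHom.comp (theta hD4 k)) =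
      (glMap chevF4 (iterateFrobenius k 2 e)).comp (subDF k) := by
    apply PresentedGroup.ext
    rintro ⟨r, t⟩
    show ioGL k (phi chevD4 k 2 e (theta hD4 k (PresentedGroup.of (r, t)))) =
      glMap chevF4 (iterateFrobenius k 2 e) (subDF k (PresentedGroup.of (r, t)))
    rw [theta_of, subDF_of, glMap_xG]
    have h2 : phi chevD4 k 2 e ⟨xG hD4 r t, xG_mem_group hD4 r t⟩ =
        ⟨xG hD4 r (iterateFrobenius k 2 e t), xG_mem_group hD4 r _⟩ := by
      apply Subtype.ext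
      rw [coe_phi]
      show glMap chevD4 (iterateFrobenius k 2 e) (xG hD4 r t) = xG hD4 r (iterateFrobenius k 2 e t)
      rw [glMap_xG]
    rw [h2, ioGL_xG]
  have h1 := DFunLike.congr_fun h z
  rw [ioGL_theta]
  exact h1

omit [IsAlgClosed k] [CharP k 2] in
theorem nn3_fix (φ : k →+* k) : glMap chevF4 φ (nn3 k) = nn3 k := by
  unfold nn3
  rw [nG_def, nG_def]
  simp only [map_mul, glMap_xG, map_neg, map_inv₀, map_one]

end Frob

/-! ### the main theorem -/

section Main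

variable {k : Type u} [Field k] [IsAlgClosed k] [CharP k 2]

omit [IsAlgClosed k] [CharP k 2] in
theorem nn3_mem : nn3 k ∈ chevF4.group k :=
  mul_mem (nG_mem_group hF4 _ _) (nG_mem_group hF4 _ _)

/-- **`³D₄(q) ≤ F₄(q)`**, `q` even. -/
theorem exists_hom {F L : Type u} [Field F] [Fintype F] [Field L] [Fintype L] {q e : ℕ} (he : 0 < e) (hq : q = 2 ^ e)
    (hF : Fintype.card F = q) (hL : Fintype.card L = q ^ 3) (f : F →+* k) (g : L →+* k) :
    ∃ φ : ↥(twistedD4 L q) →* ↥(chevF4.group F), Function.Injective φ := by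
  have : Fact (Nat.Prime 2) := ⟨Nat.prime_two⟩
  have hqp : IsPrimePow q := by
    rw [hq]
    exact Nat.prime_two.isPrimePow.pow he.ne'
  let cs := CoxeterMatrix.F₄.toCoxeterSystem
  obtain ⟨z, hz⟩ := lang_all (k := k) hpF4 cs he isFrob_phi (fr_phi (p := 2) (e := e) hpF4 cs) 1
    ⟨nn3 k, nn3_mem⟩
  have hz1 : phi chevF4 k 2 e z = z * ⟨nn3 k, nn3_mem⟩ := by
    rw [hz, map_one, one_mul]
    group
  -- fixed points
  have key : ∀ x : ↥(twistedD4 L q), z * io k (embT g hqp hL x) * z⁻¹ ∈ (emb hF4 f).range := by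
    intro x
    refine fix_range hpF4 cs f (by rw [hF, hq]) invC_F4 one_ne_zero (fun a => ⟨a, pow_one a⟩) ?_
    have h1 := tau_embT (k := k) (p := 2) (e := e) g hq hqp hL x
    set y := embT (k := k) g hqp hL x with hy
    have h2 : gam k (phi chevD4 k 2 e y) = y := h1
    have h3 : (⟨nn3 k, nn3_mem⟩ : ↥(chevF4.group k)) * phi chevF4 k 2 e (io k y) *
        (⟨nn3 k, nn3_mem⟩ : ↥(chevF4.group k))⁻¹ = io k y := by
      apply Subtype.ext
      rw [Subgroup.coe_mul, Subgroup.coe_mul, Subgroup.coe_inv, coe_phi, coe_io]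
      show nn3 k * glMap chevF4 (iterateFrobenius k 2 e) (ioGL k y) * (nn3 k)⁻¹ = ioGL k y
      rw [← io_phi, ← io_gam, h2]
    rw [map_mul, map_mul, map_inv, hz1]
    have h4 : z * ⟨nn3 k, nn3_mem⟩ * phi chevF4 k 2 e (io k y) * (z * ⟨nn3 k, nn3_mem⟩)⁻¹ =
        z * ((⟨nn3 k, nn3_mem⟩ : ↥(chevF4.group k)) * phi chevF4 k 2 e (io k y) *
          (⟨nn3 k, nn3_mem⟩ : ↥(chevF4.group k))⁻¹) * z⁻¹ := by group
    rw [h4, h3]
  -- the homomorphism
  let ψ : ↥(twistedD4 L q) →* ↥(chevF4.group k) := (MulAut.conj z).toMonoidHom.comp ((io k).comp (embT g hqp hL))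
  have hψ : Function.Injective ψ :=
    (MulAut.conj z).injective.comp (io_injective.comp (embT_injective g hqp hL))
  have hr : ∀ x, ψ x ∈ (emb hF4 f).range := key
  let ρ : ↥(twistedD4 L q) →* ↥(emb hF4 f).range := ψ.codRestrict _ hr
  let ε : ↥(chevF4.group F) ≃* ↥(emb hF4 f).range := MonoidHom.ofInjective (emb_injective hF4 f)
  refine ⟨ε.symm.toMonoidHom.comp ρ, ε.symm.injective.comp ?_⟩
  intro x y hxy
  exact hψ (congrArg Subtype.val hxy)

end Main

/-- **B5: `³D₄(2) ≤ F₄(2)`.** -/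
theorem sub_f4_td4 : Cfsg.Agent.H944.TS.Sub.{u} (.f4 2) (.td4 2) := by
  intro X _ h
  obtain ⟨F, _, _, hF, ⟨e⟩⟩ := h
  have h2 : Fact (Nat.Prime 2) := ⟨Nat.prime_two⟩
  obtain ⟨p, m, hpf, hch, hck, hm, hq, -⟩ := exists_closure hF
  obtain rfl : p = 2 := by
    have h3 : p ∣ 2 := by rw [hq]; exact dvd_pow_self p hm.ne'
    exact (Nat.prime_dvd_prime_iff_eq hpf.out Nat.prime_two).1 h3
  let L := GaloisField 2 3
  have hLc : Nat.card L = 2 ^ 3 := GaloisField.card 2 3 (by norm_num)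
  have hfin : Finite L := Nat.finite_of_card_ne_zero (by rw [hLc]; norm_num)
  let hLf : Fintype L := Fintype.ofFinite L
  have hL : Fintype.card L = 2 ^ 3 := by rw [← hLc, Nat.card_eq_fintype_card]
  let _ : Algebra (ZMod 2) (AlgebraicClosure F) := ZMod.algebra _ 2
  have : Algebra.IsAlgebraic (ZMod 2) L := Algebra.IsAlgebraic.of_finite _ _
  let g : L →ₐ[ZMod 2] AlgebraicClosure F := IsAlgClosed.lift
  obtain ⟨φ, hφ⟩ := exists_hom (k := AlgebraicClosure F) (F := F) (L := L) (q := 2) (e := 1) one_pos (by norm_num) hF hL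
    (algebraMap F _) (g : L →+* AlgebraicClosure F)
  refine ⟨(e.symm.toMonoidHom.comp φ).range, L, inferInstance, hLf, hL, ⟨?_⟩⟩
  exact (MonoidHom.ofInjective (f := e.symm.toMonoidHom.comp φ) (e.symm.injective.comp hφ)).symm

end Cfsg.Agent.H941.B5
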